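import Cfsg.Prelude.Def_Classical
import Cfsg.Prelude.Def_Blocks
import Cfsg.Agent.H621.SymDeg.Chars
import Cfsg.Agent.Characters.Linear
import Cfsg.Agent.CharDeep.DegreeBound
import Cfsg.Agent.Blocks.Basic

/-!
# S4907, DM29: a faithful irreducible character of small degree of `Ω⁺_{2m}(q)`
-/

set_option autoImplicit false

namespace Cfsg.Agent.H193.DM

open Cfsg Cfsg.Agent.Characters.Core

universe u

/-- an irreducible character above a linear character of a subgroup which is not trivial on a central element -/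
theorem exists_chi {G : Type u} [Group G] [Finite G] (P : Subgroup G) (lam : P →* ℂˣ) (z : G)
    (hz : z ∈ Subgroup.center G) (hzP : z ∈ P) (hl : lam ⟨z, hzP⟩ ≠ 1) :
    ∃ χ : IrrCharacter G, (χ : G → ℂ) z ≠ (χ : G → ℂ) 1 ∧ charDegree (χ : G → ℂ) ≤ P.index := by
  classical
  let _ : Fintype G := Fintype.ofFinite G
  let _ : Fintype P := Fintype.ofFinite P
  have hlam := Cfsg.Agent.Characters.Linear.isIrrCharacter_hom lam
  obtain ⟨χ, hχ, hne⟩ := CharDeep.PowerDegrees.exists_irr_over P hlam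
  refine ⟨⟨χ, hχ⟩, ?_, ?_⟩
  · show χ z ≠ χ 1
    intro h
    obtain ⟨w, -, hw⟩ := CharDeep.DegreeBound.exists_omega hχ hz
    have hw1 : w = 1 := by
      have h1 := hw 1
      rw [one_mul, h] at h1
      have h2 := isIrr_apply_one_ne_zero hχ
      exact (mul_right_cancel₀ h2 (by rw [one_mul]; exact h1)).symm
    apply hne
    rw [classInner_def]
    have h2 : ∑ n : P, χ n * (starRingEnd ℂ) ((lam n : ℂˣ) : ℂ) =
        (starRingEnd ℂ) ((lam ⟨z, hzP⟩ : ℂˣ) : ℂ) * ∑ n : P, χ n * (starRingEnd ℂ) ((lam n : ℂˣ) : ℂ) := by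
      conv_lhs => rw [← Equiv.sum_comp (Equiv.mulRight (⟨z, hzP⟩ : P))]
      rw [Finset.mul_sum]
      refine Finset.sum_congr rfl fun n _ => ?_
      show χ ((n : G) * z) * (starRingEnd ℂ) ((lam (n * ⟨z, hzP⟩) : ℂˣ) : ℂ) = _
      rw [hw, hw1, map_mul, Units.val_mul, map_mul]
      ring
    have h3 : ∑ n : P, χ n * (starRingEnd ℂ) ((lam n : ℂˣ) : ℂ) = 0 := by
      by_contra h0
      have h4 : (1 : ℂ) = (starRingEnd ℂ) ((lam ⟨z, hzP⟩ : ℂˣ) : ℂ) :=
        mul_right_cancel₀ h0 (by rw [one_mul]; exact h2)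
      apply hl
      refine Units.ext ?_
      have h5 := congrArg (starRingEnd ℂ) h4
      rw [map_one, Complex.conj_conj] at h5
      exact h5.symm
    rw [h3, mul_zero]
  · show charDegree χ ≤ P.index

    have h2 := H621.SymDeg.degree_le_index_mul P hχ hlam hne (a := charDegree χ) (b := 1)
      (Blocks.Basic.irr_one_eq_charDegree hχ) (by rw [map_one]; simp)
    simpa using h2


section Count

variable {F : Type*} [Field F]

/-- the number of solutions of a nonzero linear equation -/
theorem card_dot [Finite F] {m : ℕ} (x : Fin m → F) (hx : x ≠ 0) :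
    Nat.card {y : Fin m → F // ∑ i, x i * y i = 0} * Nat.card F = Nat.card F ^ m := by
  let φ : (Fin m → F) →ₗ[F] F :=
    { toFun := fun y => ∑ i, x i * y i
      map_add' := fun y z => by
        rw [← Finset.sum_add_distrib]
        exact Finset.sum_congr rfl fun i _ => mul_add _ _ _
      map_smul' := fun a y => by
        rw [RingHom.id_apply, smul_eq_mul, Finset.mul_sum]
        exact Finset.sum_congr rfl fun i _ => by
          rw [Pi.smul_apply, smul_eq_mul]
          ring }
  obtain ⟨j, hj⟩ := Function.ne_iff.1 hx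
  have hj' : x j ≠ 0 := hj
  have hs : Function.Surjective φ := by
    intro a
    refine ⟨Pi.single j (a / x j), ?_⟩
    show ∑ i, x i * (Pi.single j (a / x j) : Fin m → F) i = a
    rw [Finset.sum_eq_single j]
    · rw [Pi.single_eq_same]
      field_simp
    · intro i _ hij
      rw [Pi.single_eq_of_ne hij, mul_zero]
    · intro h
      exact absurd (Finset.mem_univ j) h
  have h1 : Nat.card (Fin m → F) = Nat.card (LinearMap.ker φ) * Nat.card ((Fin m → F) ⧸ LinearMap.ker φ) :=
    Submodule.card_eq_card_quotient_mul_card _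
  have h2 : Nat.card ((Fin m → F) ⧸ LinearMap.ker φ) = Nat.card F :=
    Nat.card_congr (φ.quotKerEquivOfSurjective hs).toEquiv
  have h3 : Nat.card (Fin m → F) = Nat.card F ^ m := by
    rw [Nat.card_fun, Nat.card_eq_fintype_card (α := Fin m), Fintype.card_fin]
  rw [h2, h3] at h1
  exact h1.symm

/-- the number of nonzero singular vectors of the form of plus type -/
theorem card_sing [Finite F] {m : ℕ} (hm : 1 ≤ m) :
    Nat.card {v : Fin m ⊕ Fin m → F // quadFormPlus m F v = 0 ∧ v ≠ 0} =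
      (Nat.card F ^ m - 1) * (Nat.card F ^ (m - 1) + 1) := by
  classical
  let _ : Fintype F := Fintype.ofFinite F
  set q := Nat.card F with hq
  have hq1 : 1 < q := Finite.one_lt_card
  obtain ⟨k, rfl⟩ : ∃ k, m = k + 1 := ⟨m - 1, by omega⟩
  have h1 : Nat.card {v : Fin (k + 1) ⊕ Fin (k + 1) → F // quadFormPlus (k + 1) F v = 0} =
      ∑ x : Fin (k + 1) → F, Nat.card {y : Fin (k + 1) → F // ∑ i, x i * y i = 0} := by
    rw [← Nat.card_sigma]
    refine Nat.card_congr
      { toFun := fun v => ⟨fun i => v.1 (.inl i), ⟨fun i => v.1 (.inr i), v.2⟩⟩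
        invFun := fun z => ⟨Sum.elim z.1 z.2.1, z.2.2⟩
        left_inv := fun v => Subtype.ext (by
          funext i
          rcases i with i | i <;> rfl)
        right_inv := fun z => rfl }
  have h2 : ∀ x : Fin (k + 1) → F, x ≠ 0 → Nat.card {y : Fin (k + 1) → F // ∑ i, x i * y i = 0} = q ^ k := by
    intro x hx
    have := card_dot x hx
    rw [pow_succ] at this
    exact Nat.eq_of_mul_eq_mul_right (by omega) this
  have h0 : Nat.card {y : Fin (k + 1) → F // ∑ i, (0 : Fin (k + 1) → F) i * y i = 0} = q ^ (k + 1) := by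
    have e : {y : Fin (k + 1) → F // ∑ i, (0 : Fin (k + 1) → F) i * y i = 0} ≃ (Fin (k + 1) → F) :=
      Equiv.subtypeUnivEquiv fun y => by simp
    rw [Nat.card_congr e, Nat.card_fun, Nat.card_eq_fintype_card (α := Fin (k + 1)), Fintype.card_fin]
  have h3 : Nat.card {v : Fin (k + 1) ⊕ Fin (k + 1) → F // quadFormPlus (k + 1) F v = 0} =
      q ^ (k + 1) + (q ^ (k + 1) - 1) * q ^ k := by
    rw [h1, ← Finset.add_sum_erase _ _ (Finset.mem_univ (0 : Fin (k + 1) → F)), h0]
    congr 1
    rw [Finset.sum_congr rfl fun x hx => h2 x (Finset.ne_of_mem_erase hx), Finset.sum_const,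
      Finset.card_erase_of_mem (Finset.mem_univ _), Finset.card_univ, Fintype.card_fun, Fintype.card_fin,
      smul_eq_mul, hq, Nat.card_eq_fintype_card]
  have h4 : Nat.card {v : Fin (k + 1) ⊕ Fin (k + 1) → F // quadFormPlus (k + 1) F v = 0} =
      Nat.card {v : Fin (k + 1) ⊕ Fin (k + 1) → F // quadFormPlus (k + 1) F v = 0 ∧ v ≠ 0} + 1 := by
    have e : {v : Fin (k + 1) ⊕ Fin (k + 1) → F // quadFormPlus (k + 1) F v = 0} ≃
        Option {v : Fin (k + 1) ⊕ Fin (k + 1) → F // quadFormPlus (k + 1) F v = 0 ∧ v ≠ 0} :=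
      { toFun := fun v => if h : v.1 = 0 then none else some ⟨v.1, v.2, h⟩
        invFun := fun o => o.elim ⟨0, by simp [quadFormPlus]⟩ fun v => ⟨v.1, v.2.1⟩
        left_inv := fun v => by
          by_cases h : v.1 = 0
          · simp only [h, dif_pos]
            exact Subtype.ext h.symm
          · simp only [h, dif_neg, not_false_eq_true]
            rfl
        right_inv := fun o => by
          rcases o with _ | v
          · simp
          · have h : v.1 ≠ 0 := v.2.2
            show (if h : v.1 = 0 then none else some ⟨v.1, v.2.1, h⟩ : Option _) = some v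
            rw [dif_neg h] }
    rw [Nat.card_congr e, Finite.card_option]
  rw [h3] at h4
  have h5 : 1 ≤ q ^ (k + 1) := Nat.one_le_pow _ _ (by omega)
  have h6 : k + 1 - 1 = k := rfl
  rw [h6]
  obtain ⟨a, ha⟩ : ∃ a, q ^ (k + 1) = a + 1 := ⟨q ^ (k + 1) - 1, by omega⟩
  rw [ha] at h4 ⊢
  rw [Nat.add_sub_cancel] at h4 ⊢
  rw [mul_add, mul_one]
  omega

end Count

section Main

variable {F : Type} [Field F] {m : ℕ}

open Matrix

/-- the matrix of an element of `Ω` -/
noncomputable abbrev mat (g : Omega F (quadFormPlus m F)) : Matrix (Fin m ⊕ Fin m) (Fin m ⊕ Fin m) F :=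
  (((g : isometryGroup F (quadFormPlus m F)) : GL (Fin m ⊕ Fin m) F) : Matrix (Fin m ⊕ Fin m) (Fin m ⊕ Fin m) F)

theorem mat_mul (g h : Omega F (quadFormPlus m F)) : mat (g * h) = mat g * mat h := rfl

theorem mat_one : mat (1 : Omega F (quadFormPlus m F)) = 1 := rfl

theorem mat_isom (g : Omega F (quadFormPlus m F)) (v : Fin m ⊕ Fin m → F) :
    quadFormPlus m F (mat g *ᵥ v) = quadFormPlus m F v :=
  (g : isometryGroup F (quadFormPlus m F)).2 v v

/-- **DM29** -/
theorem small_faithful [Fintype F] (ho : Odd (Fintype.card F)) (hm : 1 ≤ m) (z : Omega F (quadFormPlus m F))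
    (hz : mat z = -1) :
    ∃ χ : IrrCharacter (Omega F (quadFormPlus m F)), (χ : Omega F (quadFormPlus m F) → ℂ) z ≠ (χ : Omega F (quadFormPlus m F) → ℂ) 1 ∧
      (Fintype.card F - 1) * charDegree (χ : Omega F (quadFormPlus m F) → ℂ) ≤
        (Fintype.card F ^ m - 1) * (Fintype.card F ^ (m - 1) + 1) := by
  classical
  let x0 : Fin m ⊕ Fin m → F := Pi.single (.inl ⟨0, hm⟩) 1
  have hx0 : x0 ≠ 0 := by
    intro h
    have := congrFun h (.inl ⟨0, hm⟩)
    simp [x0] at this
  have hQ0 : quadFormPlus m F x0 = 0 := by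
    show ∑ i : Fin m, x0 (.inl i) * x0 (.inr i) = 0
    refine Finset.sum_eq_zero fun i _ => ?_
    have : x0 (.inr i) = 0 := by
      show (Pi.single (.inl ⟨0, hm⟩) 1 : Fin m ⊕ Fin m → F) (.inr i) = 0
      rw [Pi.single_eq_of_ne]
      exact Sum.inr_ne_inl
    rw [this, mul_zero]
  have hinj : ∀ (g : Omega F (quadFormPlus m F)) (v : Fin m ⊕ Fin m → F), mat g⁻¹ *ᵥ (mat g *ᵥ v) = v := by
    intro g v
    rw [mulVec_mulVec, ← mat_mul, inv_mul_cancel, mat_one, one_mulVec]
  -- the stabiliser of the line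
  let P : Subgroup (Omega F (quadFormPlus m F)) :=
    { carrier := {g | ∃ a : Fˣ, mat g *ᵥ x0 = (a : F) • x0}
      mul_mem' := by
        rintro g h ⟨a, ha⟩ ⟨b, hb⟩
        refine ⟨a * b, ?_⟩
        rw [mat_mul, ← mulVec_mulVec, hb, mulVec_smul, ha, smul_smul, Units.val_mul, mul_comm]
      one_mem' := ⟨1, by rw [mat_one, one_mulVec, Units.val_one, one_smul]⟩
      inv_mem' := by
        rintro g ⟨a, ha⟩
        refine ⟨a⁻¹, ?_⟩
        have h1 := hinj g x0
        rw [ha, mulVec_smul] at h1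
        have h2 := congrArg (fun v => ((a⁻¹ : Fˣ) : F) • v) h1
        simp only [smul_smul] at h2
        rw [Units.inv_mul, one_smul] at h2
        exact h2 }
  have hex : ∀ g : P, ∃ a : Fˣ, mat g.1 *ᵥ x0 = (a : F) • x0 := fun g => g.2
  choose A hA using hex
  have huniq : ∀ (a b : Fˣ), (a : F) • x0 = (b : F) • x0 → a = b := by
    intro a b h
    exact Units.ext (smul_left_injective F hx0 h)
  let lamF : P →* Fˣ :=
    { toFun := A
      map_one' := huniq _ _ (by
        rw [← hA]
        show mat (1 : Omega F (quadFormPlus m F)) *ᵥ x0 = _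
        rw [mat_one, one_mulVec, Units.val_one, one_smul])
      map_mul' := fun g h => huniq _ _ (by
        rw [← hA]
        show mat (g.1 * h.1) *ᵥ x0 = _
        rw [mat_mul, ← mulVec_mulVec, hA, mulVec_smul, hA, smul_smul, Units.val_mul, mul_comm]) }
  have h2 : (-1 : Fˣ) ≠ 1 := by
    intro h
    have h1 : (-1 : F) = 1 := by
      have := congrArg (fun u : Fˣ => (u : F)) h
      simpa using this
    have h3 : ringChar F = 2 := by
      by_contra h4
      exact Ring.neg_one_ne_one_of_char_ne_two h4 h1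
    exact (Nat.not_even_iff_odd.2 ho) ((FiniteField.even_card_iff_char_two).1 h3 |> Nat.even_iff.2)
  obtain ⟨ψ, hψ⟩ := CommGroup.exists_apply_ne_one_of_hasEnoughRootsOfUnity Fˣ ℂ h2
  have hzP : z ∈ P := ⟨-1, by rw [hz, neg_mulVec, one_mulVec, Units.val_neg, Units.val_one, neg_smul, one_smul]⟩
  have hAz : lamF ⟨z, hzP⟩ = -1 := huniq _ _ (by
    show ((A ⟨z, hzP⟩ : Fˣ) : F) • x0 = _
    rw [← hA]
    show mat z *ᵥ x0 = _
    rw [hz, neg_mulVec, one_mulVec, Units.val_neg, Units.val_one, neg_smul, one_smul])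
  have hzc : z ∈ Subgroup.center (Omega F (quadFormPlus m F)) := by
    rw [Subgroup.mem_center_iff]
    intro g
    refine Subtype.ext (Subtype.ext (Units.ext ?_))
    show mat g * mat z = mat z * mat g
    rw [hz, mul_neg, neg_mul, mul_one, one_mul]
  obtain ⟨χ, hχ, hdeg⟩ := exists_chi P (ψ.comp lamF) z hzc hzP (by
    rw [MonoidHom.comp_apply, hAz]
    exact hψ)
  refine ⟨χ, hχ, ?_⟩
  -- the index of `P`
  have hidx : P.index * (Fintype.card F - 1) ≤ (Fintype.card F ^ m - 1) * (Fintype.card F ^ (m - 1) + 1) := by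
    have h3 := card_sing (F := F) hm
    rw [Nat.card_eq_fintype_card (α := F)] at h3
    rw [← h3]
    have h4 : P.index * (Fintype.card F - 1) = Nat.card ((Omega F (quadFormPlus m F) ⧸ P) × Fˣ) := by
      rw [Nat.card_prod, Nat.card_units, Nat.card_eq_fintype_card (α := F)]
      rfl
    rw [h4]
    refine Nat.card_le_card_of_injective (fun c => (⟨(c.2 : F) • (mat c.1.out *ᵥ x0), ?_, ?_⟩ :
      {v : Fin m ⊕ Fin m → F // quadFormPlus m F v = 0 ∧ v ≠ 0})) ?_
    · rw [← mulVec_smul, mat_isom]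
      show ∑ i : Fin m, (((c.2 : F) • x0) (.inl i)) * (((c.2 : F) • x0) (.inr i)) = 0
      simp only [Pi.smul_apply, smul_eq_mul]
      have : ∀ i : Fin m, (c.2 : F) * x0 (.inl i) * ((c.2 : F) * x0 (.inr i)) =
          (c.2 : F) ^ 2 * (x0 (.inl i) * x0 (.inr i)) := fun i => by ring
      simp only [this]
      rw [← Finset.mul_sum]
      have h5 : ∑ i : Fin m, x0 (.inl i) * x0 (.inr i) = 0 := hQ0
      rw [h5, mul_zero]
    · intro h
      rw [← mulVec_smul] at h
      have h5 := hinj c.1.out ((c.2 : F) • x0)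
      rw [h, mulVec_zero] at h5
      have h6 : x0 = 0 := (smul_eq_zero_iff_right c.2.ne_zero).1 h5.symm
      exact hx0 h6
    · rintro ⟨c, a⟩ ⟨d, b⟩ h
      have h5 : (a : F) • (mat c.out *ᵥ x0) = (b : F) • (mat d.out *ᵥ x0) := congrArg Subtype.val h
      have h6 : mat (d.out⁻¹ * c.out) *ᵥ x0 = ((a⁻¹ * b : Fˣ) : F) • x0 := by
        have h7 : mat c.out *ᵥ x0 = ((a⁻¹ * b : Fˣ) : F) • (mat d.out *ᵥ x0) := by
          rw [Units.val_mul, mul_smul, ← h5, smul_smul, Units.inv_mul, one_smul]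
        rw [mat_mul, ← mulVec_mulVec, h7, mulVec_smul, hinj]
      have h8 : c = d := by
        rw [← Quotient.out_eq' c, ← Quotient.out_eq' d]
        exact (QuotientGroup.eq.2 (show d.out⁻¹ * c.out ∈ P from ⟨_, h6⟩)).symm
      subst h8
      rw [inv_mul_cancel, mat_one, one_mulVec] at h6
      have h9 : (1 : Fˣ) = a⁻¹ * b := huniq _ _ (by rw [Units.val_one, one_smul]; exact h6)
      have h10 : a = b := by
        rw [eq_comm, inv_mul_eq_one] at h9
        exact h9
      rw [h10]
  calc (Fintype.card F - 1) * charDegree (χ : Omega F (quadFormPlus m F) → ℂ) ≤ (Fintype.card F - 1) * P.index :=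
        Nat.mul_le_mul_left _ hdeg
    _ = P.index * (Fintype.card F - 1) := mul_comm _ _
    _ ≤ _ := hidx

end Main

end Cfsg.Agent.H193.DM
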